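import Cfsg.Agent.SpGeom.Basic
import Cfsg.Agent.SpGeom.Order

set_option autoImplicit false

/-! The number of ordered pairs of complementary totally isotropic subspaces of a symplectic space. -/

namespace CfsgLib.PolarPair

open Matrix CfsgLib.SpGeom

variable {F : Type*} [Field F] {m : ℕ}

local notation "V" => (Fin m ⊕ Fin m → F)
local notation "Sp" => Matrix.symplecticGroup (Fin m) F
local notation "f" => Cfsg.sympForm m F
local notation "mat" A:max => ((A : Sp) : Matrix (Fin m ⊕ Fin m) (Fin m ⊕ Fin m) F)

/-- Ordered pairs of complementary totally isotropic subspaces. -/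
abbrev Pairs (m : ℕ) (F : Type*) [Field F] :=
  {P : Submodule F (Fin m ⊕ Fin m → F) × Submodule F (Fin m ⊕ Fin m → F) // IsCompl P.1 P.2 ∧
    (∀ u ∈ P.1, ∀ v ∈ P.1, Cfsg.sympForm m F u v = 0) ∧ (∀ u ∈ P.2, ∀ v ∈ P.2, Cfsg.sympForm m F u v = 0)}

variable (F m) in
/-- The form as a bilinear map. -/
def bform : LinearMap.BilinForm F (Fin m ⊕ Fin m → F) :=
  LinearMap.mk₂ F (Cfsg.sympForm m F) form_add_left (fun c x y => by rw [form_smul_left, smul_eq_mul])
    form_add_right (fun c x y => by rw [form_smul_right, smul_eq_mul])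

theorem bform_apply (x y : V) : bform F m x y = f x y := rfl

theorem perp_of_compl {U W : Submodule F V} (h : IsCompl U W) {x : V}
    (hU : ∀ u ∈ U, f u x = 0) (hW : ∀ w ∈ W, f w x = 0) : x = 0 := by
  by_contra hx
  obtain ⟨y, hy⟩ := exists_form_ne_zero hx
  obtain ⟨u, hu, w, hw, rfl⟩ := Submodule.mem_sup.1
    (h.sup_eq_top ▸ Submodule.mem_top : y ∈ U ⊔ W)
  apply hy
  rw [form_add_right, form_skew u, form_skew w, hU u hu, hW w hw, neg_zero, add_zero]

/-- Pairing a totally isotropic subspace with the dual of its complement. -/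
theorem pairing_injective {U W : Submodule F V} (h : IsCompl U W)
    (hW : ∀ u ∈ W, ∀ v ∈ W, f u v = 0) :
    Function.Injective (((bform F m).flip.compl₂ U.subtype).comp W.subtype) := by
  rw [← LinearMap.ker_eq_bot, Submodule.eq_bot_iff]
  intro w hw
  rw [LinearMap.mem_ker] at hw
  refine Subtype.ext (perp_of_compl h (fun u hu => ?_) fun w' hw' => hW w' hw' w w.2)
  exact LinearMap.congr_fun hw ⟨u, hu⟩

theorem finrank_eq {U W : Submodule F V} (h : IsCompl U W) (hU : ∀ u ∈ U, ∀ v ∈ U, f u v = 0)
    (hW : ∀ u ∈ W, ∀ v ∈ W, f u v = 0) : Module.finrank F U = m ∧ Module.finrank F W = m := by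
  have h1 := LinearMap.finrank_le_finrank_of_injective (pairing_injective h hW)
  have h2 := LinearMap.finrank_le_finrank_of_injective (pairing_injective h.symm hU)
  rw [Subspace.dual_finrank_eq] at h1 h2
  have h3 := Submodule.finrank_add_eq_of_isCompl h
  rw [Module.finrank_fintype_fun_eq_card, Fintype.card_sum, Fintype.card_fin] at h3
  omega

/-- The columns of a symplectic matrix. -/
def col (A : Sp) (c : Fin m ⊕ Fin m) : V := mat A *ᵥ Pi.single c 1

theorem linearIndependent_col (A : Sp) : LinearIndependent F (col A) := by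
  have h : Function.Injective (Matrix.toLin' (mat A)) := fun x y hxy => by
    have := congrArg (mat A⁻¹ *ᵥ ·) hxy
    simpa [Matrix.toLin'_apply, Matrix.mulVec_mulVec, ← coe_mul', coe_one'] using this
  have hh := (Pi.basisFun F (Fin m ⊕ Fin m)).linearIndependent.map' _ (LinearMap.ker_eq_bot.2 h)
  have e : col A = ⇑(Matrix.toLin' (mat A)) ∘ ⇑(Pi.basisFun F (Fin m ⊕ Fin m)) := by
    funext c
    simp only [Function.comp_apply, Pi.basisFun_apply, Matrix.toLin'_apply]
    rfl
  rw [e]
  exact hh

theorem form_col (A : Sp) (c c' : Fin m ⊕ Fin m) :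
    f (col A c) (col A c') = f (Pi.single c 1) (Pi.single c' 1) := form_mulVec A _ _

theorem isotropic_span {ι : Type*} {v : ι → V} (h : ∀ i j, f (v i) (v j) = 0) :
    ∀ x ∈ Submodule.span F (Set.range v), ∀ y ∈ Submodule.span F (Set.range v), f x y = 0 := by
  intro x hx y hy
  induction hx using Submodule.span_induction with
  | zero => exact form_zero_left _
  | add a b _ _ ha hb => rw [form_add_left, ha, hb, add_zero]
  | smul c a _ ha => rw [form_smul_left, ha, mul_zero]
  | mem a ha =>
    obtain ⟨i, rfl⟩ := ha
    induction hy using Submodule.span_induction with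
    | zero => exact form_zero_right _
    | add a b _ _ ha hb => rw [form_add_right, ha, hb, add_zero]
    | smul c a _ ha => rw [form_smul_right, ha, mul_zero]
    | mem a ha => obtain ⟨j, rfl⟩ := ha; exact h i j

theorem form_inl_inl (i j : Fin m) :
    f (Pi.single (Sum.inl i) 1) (Pi.single (Sum.inl j) 1) = 0 := by
  rw [form_single_inl_right]; simp

theorem form_inr_inr (i j : Fin m) :
    f (Pi.single (Sum.inr i) 1) (Pi.single (Sum.inr j) 1) = 0 := by
  rw [form_single_inr_right]; simp

theorem form_inl_inr (i j : Fin m) :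
    f (Pi.single (Sum.inl i) 1) (Pi.single (Sum.inr j) 1) = -(Pi.single i (1 : F) : Fin m → F) j := by
  rw [form_single_inr_right]
  rcases eq_or_ne j i with rfl | h
  · simp
  · rw [Pi.single_eq_of_ne (fun e => h (Sum.inl.inj e)), Pi.single_eq_of_ne h]

/-- The pair spanned by the two halves of the columns of a symplectic matrix. -/
def pairOf (A : Sp) : Pairs m F :=
  ⟨(Submodule.span F (Set.range (col A ∘ Sum.inl)), Submodule.span F (Set.range (col A ∘ Sum.inr))),
    ⟨by
      refine ⟨?_, ?_⟩
      · have := (linearIndependent_col A).disjoint_span_image (s := Set.range Sum.inl)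
          (t := Set.range Sum.inr) Set.isCompl_range_inl_range_inr.disjoint
        rwa [← Set.range_comp, ← Set.range_comp] at this
      · rw [codisjoint_iff, ← Submodule.span_union, ← Set.Sum.elim_range, Sum.elim_comp_inl_inr]
        exact (linearIndependent_col A).span_eq_top_of_card_eq_finrank' (by simp),
      isotropic_span fun i j => (form_col A _ _).trans (form_inl_inl i j),
      isotropic_span fun i j => (form_col A _ _).trans (form_inr_inr i j)⟩⟩

theorem fst_pairOf (A : Sp) :
    (pairOf A).1.1 = Submodule.span F (Set.range (col A ∘ Sum.inl)) := rfl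

theorem snd_pairOf (A : Sp) :
    (pairOf A).1.2 = Submodule.span F (Set.range (col A ∘ Sum.inr)) := rfl

variable [Fintype F]

theorem card_fibre (P : Pairs m F) :
    Nat.card {A : Sp // pairOf A = P} =
      ∏ i ∈ Finset.range m, (Fintype.card F ^ m - Fintype.card F ^ i) := by
  classical
  obtain ⟨⟨U, W⟩, hc, hU, hW⟩ := P
  obtain ⟨hdU, hdW⟩ := finrank_eq hc hU hW
  have hmem : ∀ (A : {A : Sp // pairOf A = ⟨(U, W), hc, hU, hW⟩}) (i : Fin m),
      col A.1 (Sum.inl i) ∈ U := fun A i => by
    have h : (pairOf A.1).1.1 = U := by rw [A.2]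
    exact h.le (Submodule.subset_span ⟨i, rfl⟩)
  have hmem' : ∀ (A : {A : Sp // pairOf A = ⟨(U, W), hc, hU, hW⟩}) (i : Fin m),
      col A.1 (Sum.inr i) ∈ W := fun A i => by
    have h : (pairOf A.1).1.2 = W := by rw [A.2]
    exact h.le (Submodule.subset_span ⟨i, rfl⟩)
  let Φ : {A : Sp // pairOf A = ⟨(U, W), hc, hU, hW⟩} →
      {u : Fin m → U // LinearIndependent F u} := fun A =>
    ⟨fun i => ⟨_, hmem A i⟩, LinearIndependent.of_comp U.subtype
      ((linearIndependent_col A.1).comp Sum.inl Sum.inl_injective)⟩
  have hΦ : Function.Bijective Φ := by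
    constructor
    · intro A B hAB
      have hu : ∀ i, col A.1 (Sum.inl i) = col B.1 (Sum.inl i) := fun i =>
        congrArg (fun t : {u : Fin m → U // LinearIndependent F u} => ((t.1 i : U) : V)) hAB
      have hspan : Submodule.span F (Set.range (col A.1 ∘ Sum.inl)) = U := by
        rw [← fst_pairOf, A.2]
      have hw : ∀ i, col A.1 (Sum.inr i) = col B.1 (Sum.inr i) := by
        intro i
        rw [← sub_eq_zero]
        refine perp_of_compl hc (fun x hx => ?_)
          (fun x hx => hW x hx _ (W.sub_mem (hmem' A i) (hmem' B i)))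
        rw [← hspan] at hx
        induction hx using Submodule.span_induction with
        | zero => exact form_zero_left _
        | add a b _ _ ha hb => rw [form_add_left, ha, hb, add_zero]
        | smul c a _ ha => rw [form_smul_left, ha, mul_zero]
        | mem a ha =>
          obtain ⟨j, rfl⟩ := ha
          rw [form_sub_right, Function.comp_apply, form_col A.1]
          conv_lhs => rw [hu j, form_col B.1]
          exact sub_self _
      refine Subtype.ext (Subtype.ext (Matrix.ext fun x c => ?_))
      have hcol : col A.1 c = col B.1 c := by rcases c with i | i; exacts [hu i, hw i]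
      simpa [col] using congrFun hcol x
    · rintro ⟨u, hu⟩
      -- the dual family in `W`
      let φ : W →ₗ[F] (Fin m → F) :=
        LinearMap.pi fun i => -((bform F m ((u i : U) : V)).comp W.subtype)
      have hspanU : Submodule.span F (Set.range u) = ⊤ :=
        hu.span_eq_top_of_card_eq_finrank' (by simp [hdU])
      have hφi : Function.Injective φ := by
        rw [← LinearMap.ker_eq_bot, Submodule.eq_bot_iff]
        intro w hw
        rw [LinearMap.mem_ker] at hw
        refine Subtype.ext (perp_of_compl hc (fun x hx => ?_) fun w' hw' => hW w' hw' w w.2)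
        have hxm : (⟨x, hx⟩ : U) ∈ Submodule.span F (Set.range u) := hspanU ▸ Submodule.mem_top
        suffices h : ∀ y : U, y ∈ Submodule.span F (Set.range u) → f (y : V) w = 0 from h _ hxm
        intro y hy
        induction hy using Submodule.span_induction with
        | zero => exact form_zero_left _
        | add a b _ _ ha hb => rw [Submodule.coe_add, form_add_left, ha, hb, add_zero]
        | smul c a _ ha => rw [Submodule.coe_smul, form_smul_left, ha, mul_zero]
        | mem a ha =>
          obtain ⟨i, rfl⟩ := ha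
          have h1 := congrFun hw i
          simpa [φ, bform_apply] using h1
      have hφs : Function.Surjective φ :=
        (LinearMap.injective_iff_surjective_of_finrank_eq_finrank (by simp [hdW])).1 hφi
      choose w hw using fun k : Fin m => hφs (Pi.single k 1)
      let v : Fin m ⊕ Fin m → V :=
        Sum.elim (fun i => ((u i : U) : V)) fun i => ((w i : W) : V)
      let M : Matrix (Fin m ⊕ Fin m) (Fin m ⊕ Fin m) F := fun x c => v c x
      have hMc : ∀ c, M *ᵥ Pi.single c 1 = v c := fun c => by
        rw [Matrix.mulVec_single_one]; rfl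
      have hpair : ∀ i k, f ((u i : U) : V) ((w k : W) : V) = -(Pi.single i (1 : F) : Fin m → F) k := by
        intro i k
        have h1 := congrFun (hw k) i
        simp only [φ, LinearMap.pi_apply, LinearMap.neg_apply, LinearMap.comp_apply,
          Submodule.subtype_apply, bform_apply] at h1
        rw [← neg_eq_iff_eq_neg, h1]
        rcases eq_or_ne i k with rfl | h
        · rfl
        · rw [Pi.single_eq_of_ne h, Pi.single_eq_of_ne h.symm]
      have hform : ∀ x y : V, f (M *ᵥ x) (M *ᵥ y) = f x y := by
        have h : (bform F m).compl₁₂ (Matrix.toLin' M) (Matrix.toLin' M) = bform F m := by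
          refine LinearMap.BilinForm.ext_basis (Pi.basisFun F _) fun c c' => ?_
          rw [Pi.basisFun_apply, Pi.basisFun_apply, LinearMap.compl₁₂_apply, Matrix.toLin'_apply,
            Matrix.toLin'_apply, hMc, hMc, bform_apply, bform_apply]
          rcases c with i | i <;> rcases c' with k | k
          · exact (hU _ (u i).2 _ (u k).2).trans (form_inl_inl i k).symm
          · exact (hpair i k).trans (form_inl_inr i k).symm
          · exact (form_skew _ _).trans ((congrArg Neg.neg ((hpair k i).trans
              (form_inl_inr k i).symm)).trans (form_skew _ _).symm)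
          · exact (hW _ (w i).2 _ (w k).2).trans (form_inr_inr i k).symm
        intro x y
        exact LinearMap.congr_fun (LinearMap.congr_fun h x) y
      let A : Sp := ⟨M, mem_of_form hform⟩
      have hcolA : ∀ c, col A c = v c := hMc
      have hA : pairOf A = ⟨(U, W), hc, hU, hW⟩ := by
        apply Subtype.ext
        have h1 : (pairOf A).1.1 ≤ U := by
          rw [fst_pairOf, Submodule.span_le]
          rintro _ ⟨i, rfl⟩
          rw [Function.comp_apply, hcolA]
          exact (u i).2
        have h2 : (pairOf A).1.2 ≤ W := by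
          rw [snd_pairOf, Submodule.span_le]
          rintro _ ⟨i, rfl⟩
          rw [Function.comp_apply, hcolA]
          exact (w i).2
        obtain ⟨hd1, hd2⟩ := finrank_eq (pairOf A).2.1 (pairOf A).2.2.1 (pairOf A).2.2.2
        refine Prod.ext (Submodule.eq_of_le_of_finrank_eq h1 ?_)
          (Submodule.eq_of_le_of_finrank_eq h2 ?_)
        · rw [hd1, hdU]
        · rw [hd2, hdW]
      exact ⟨⟨A, hA⟩, Subtype.ext (funext fun i => Subtype.ext (hcolA (Sum.inl i)))⟩
  rw [Nat.card_congr (Equiv.ofBijective Φ hΦ), card_linearIndependent hdU.ge, hdU]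
  exact Fin.prod_univ_eq_prod_range (fun i => Fintype.card F ^ m - Fintype.card F ^ i) m

theorem card_sp_eq :
    Nat.card (Pairs m F) * ∏ i ∈ Finset.range m, (Fintype.card F ^ m - Fintype.card F ^ i) =
      Fintype.card F ^ (m ^ 2) *
        ∏ i ∈ Finset.range m, (Fintype.card F ^ (2 * (i + 1)) - 1) := by
  classical
  have : Fintype (Pairs m F) := Fintype.ofFinite _
  rw [← card_Sp (F := F) m, ← Nat.card_congr (Equiv.sigmaFiberEquiv (pairOf (m := m) (F := F))),
    Nat.card_sigma, Finset.sum_congr rfl fun P _ => card_fibre P, Finset.sum_const, Finset.card_univ,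
    Nat.card_eq_fintype_card, smul_eq_mul]

theorem card_pairs_eq :
    ∃ k, Nat.card (Pairs m F) * Fintype.card F ^ k =
      Fintype.card F ^ (m ^ 2) * ∏ i ∈ Finset.range m, (Fintype.card F ^ (i + 1) + 1) := by
  have hq : 1 < Fintype.card F := Fintype.one_lt_card
  set q := Fintype.card F with hqdef
  refine ⟨∑ i ∈ Finset.range m, i, ?_⟩
  have h1 : ∏ i ∈ Finset.range m, (q ^ m - q ^ i) =
      q ^ (∑ i ∈ Finset.range m, i) * ∏ i ∈ Finset.range m, (q ^ (i + 1) - 1) := by
    have hr := Finset.prod_range_reflect (fun i => q ^ (i + 1) - 1) m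
    rw [← hr, ← Finset.prod_pow_eq_pow_sum, ← Finset.prod_mul_distrib]
    refine Finset.prod_congr rfl fun i hi => ?_
    rw [Finset.mem_range] at hi
    rw [Nat.mul_sub_one, ← pow_add]
    congr 2
    omega
  have h2 : ∏ i ∈ Finset.range m, (q ^ (2 * (i + 1)) - 1) =
      (∏ i ∈ Finset.range m, (q ^ (i + 1) + 1)) * ∏ i ∈ Finset.range m, (q ^ (i + 1) - 1) := by
    rw [← Finset.prod_mul_distrib]
    refine Finset.prod_congr rfl fun i _ => ?_
    rw [← Nat.sq_sub_sq, one_pow, ← pow_mul, mul_comm (i + 1) 2]
  have h := card_sp_eq (m := m) (F := F)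
  rw [← hqdef, h1, h2, ← mul_assoc, ← mul_assoc] at h
  refine Nat.eq_of_mul_eq_mul_right (Finset.prod_pos fun i _ => ?_) h
  have : 1 < q ^ (i + 1) := Nat.one_lt_pow i.succ_ne_zero hq
  omega

end CfsgLib.PolarPair
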